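import Cfsg.Agent.H79.TwoLargePrimes
import Cfsg.Agent.H19.Hall

/-!
Groups with the order and the element orders of an alternating group.
-/

set_option autoImplicit false

namespace Cfsg.Agent.H79.AltSpec

open Equiv

theorem orderOf_ne_mul_of_large {n p r : ℕ} (hp : p.Prime) (hr : r.Prime) (hne : p ≠ r)
    (hn : n < p + r) (g : alternatingGroup (Fin n)) : orderOf g ≠ p * r := by
  intro h
  rw [← Subgroup.orderOf_coe, ← Equiv.Perm.lcm_cycleType] at h
  set M := (g : Perm (Fin n)).cycleType with hM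
  have hsum : M.sum ≤ n := by
    rw [hM, Equiv.Perm.sum_cycleType]
    exact (Finset.card_le_univ _).trans (Fintype.card_fin n).le
  have hdvd : ∀ (s : ℕ), s.Prime → s ∣ M.lcm → ∃ a ∈ M, s ∣ a := by
    intro s hs
    induction M using Multiset.induction_on with
    | empty => intro h; simp at h; exact absurd h hs.ne_one
    | cons a M ih =>
      intro h
      rw [Multiset.lcm_cons] at h
      rcases hs.dvd_mul.1 (h.trans (Nat.lcm_dvd_mul a M.lcm)) with h | h
      · exact ⟨a, Multiset.mem_cons_self _ _, h⟩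
      · obtain ⟨b, hb, hb'⟩ := ih h
        exact ⟨b, Multiset.mem_cons_of_mem hb, hb'⟩
  obtain ⟨a, ha, hpa⟩ := hdvd p hp (h ▸ dvd_mul_right p r)
  obtain ⟨b, hb, hrb⟩ := hdvd r hr (h ▸ dvd_mul_left r p)
  have ha0 : 2 ≤ a := Equiv.Perm.two_le_of_mem_cycleType (hM ▸ ha)
  have hb0 : 2 ≤ b := Equiv.Perm.two_le_of_mem_cycleType (hM ▸ hb)
  rcases eq_or_ne a b with rfl | hab
  · have := Nat.le_of_dvd (by omega) (((Nat.coprime_primes hp hr).2 hne).mul_dvd_of_dvd_of_dvd hpa hrb)
    have := Multiset.le_sum_of_mem ha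
    have := Nat.mul_le_mul hp.two_le hr.two_le
    have : p + r ≤ p * r := by nlinarith [hp.two_le, hr.two_le]
    omega
  · obtain ⟨M', hM'⟩ := Multiset.exists_cons_of_mem ha
    have hb' : b ∈ M' := by
      rw [hM', Multiset.mem_cons] at hb
      exact hb.resolve_left hab.symm
    have := Multiset.le_sum_of_mem hb'
    rw [hM', Multiset.sum_cons] at hsum
    have := Nat.le_of_dvd (by omega) hpa
    have := Nat.le_of_dvd (by omega) hrb
    omega

theorem not_order_mul {G : Type*} [Group G] {n p r : ℕ} (hp : p.Prime) (hr : r.Prime) (hne : p ≠ r)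
    (hn : n < p + r)
    (hspec : Set.range (orderOf : G → ℕ) = Set.range (orderOf : alternatingGroup (Fin n) → ℕ)) :
    ¬ ∃ x : G, orderOf x = p * r := by
  rintro ⟨x, hx⟩
  have : p * r ∈ Set.range (orderOf : alternatingGroup (Fin n) → ℕ) := hspec ▸ ⟨x, hx⟩
  obtain ⟨g, hg⟩ := this
  exact orderOf_ne_mul_of_large hp hr hne hn g hg

/-- A normal subgroup of prime order and an element of coprime prime order not inducing an
automorphism commute, so give an element of order the product. -/
theorem exists_orderOf_mul_of_normal_prime {G : Type*} [Group G] [Finite G] (K : Subgroup G)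
    [K.Normal] {p r : ℕ} (hp : p.Prime) (hr : r.Prime) (hne : p ≠ r) (hK : Nat.card K = p)
    (hnd : ¬ r ∣ p - 1) (hrG : r ∣ Nat.card G) : ∃ x : G, orderOf x = p * r := by
  haveI := Fact.mk hr
  haveI := Fact.mk hp
  obtain ⟨y, hy⟩ := exists_prime_orderOf_dvd_card' r hrG
  obtain ⟨a, ha⟩ := exists_prime_orderOf_dvd_card' (G := K) p (hK ▸ dvd_rfl)
  haveI : IsCyclic K := isCyclic_of_prime_card hK
  haveI : Finite (MulAut K) := Finite.of_injective _ MulEquiv.toEquiv_injective
  have hcardAut : Nat.card (MulAut K) = p - 1 := by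
    rw [IsCyclic.card_mulAut, hK, Nat.totient_prime hp]
  have h1 : MulAut.conjNormal y = (1 : MulAut K) := by
    rw [← orderOf_eq_one_iff]
    refine ((Nat.dvd_prime hr).1 (hy ▸ orderOf_map_dvd _ y)).resolve_right fun h => hnd ?_
    rw [← hcardAut, ← h]
    exact orderOf_dvd_natCard _
  have hc : Commute (a : G) y := by
    have := congrArg (fun φ : MulAut K => (φ a : G)) h1
    simp only [MulAut.conjNormal_apply, MulAut.one_apply] at this
    exact (mul_inv_eq_iff_eq_mul.1 this).symm
  refine ⟨(a : G) * y, ?_⟩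
  rw [hc.orderOf_mul_eq_mul_orderOf_of_coprime, Subgroup.orderOf_coe, ha, hy]
  rw [Subgroup.orderOf_coe, ha, hy]
  exact (Nat.coprime_primes hp hr).2 hne

theorem exists_lift_order {G : Type*} [Group G] [Finite G] (N : Subgroup G) [N.Normal] {m : ℕ}
    (h : ∃ x : G ⧸ N, orderOf x = m) : ∃ x : G, orderOf x = m := by
  obtain ⟨x, hx⟩ := h
  obtain ⟨g, rfl⟩ := QuotientGroup.mk_surjective x
  exact ⟨g ^ (orderOf g / m), orderOf_pow_orderOf_div (orderOf_pos g).ne'
    (hx ▸ orderOf_map_dvd (QuotientGroup.mk' N) g)⟩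

variable {G : Type*} [Group G] [Finite G] {n : ℕ}

theorem alt_card_facts (hcard : Nat.card G = Nat.card (alternatingGroup (Fin n))) (hn : 2 ≤ n) :
    2 * Nat.card G = Nat.factorial n := by
  haveI : Nontrivial (Fin n) := Fin.nontrivial_iff_two_le.2 hn
  rw [hcard, Nat.card_eq_fintype_card, two_mul_card_alternatingGroup, Fintype.card_perm,
    Fintype.card_fin]

theorem dvd_card (hcard : Nat.card G = Nat.card (alternatingGroup (Fin n))) (hn : 2 ≤ n) {p : ℕ}
    (hp : p.Prime) (hp2 : 2 < p) (hpn : p ≤ n) : p ∣ Nat.card G := by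
  have h := alt_card_facts hcard hn
  refine (hp.dvd_mul.1 (h ▸ (hp.dvd_factorial.2 hpn) : p ∣ 2 * Nat.card G)).resolve_left fun hd => ?_
  have := Nat.le_of_dvd two_pos hd
  omega

theorem sq_not_dvd (hcard : Nat.card G = Nat.card (alternatingGroup (Fin n))) (hn : 2 ≤ n) {p : ℕ}
    (hp : p.Prime) (hpn : p ≤ n) (hnp : n < 2 * p) : ¬ p ^ 2 ∣ Nat.card G := by
  intro hd
  haveI := Fact.mk hp
  have h2 : p ^ 2 ∣ Nat.factorial n := alt_card_facts hcard hn ▸ hd.mul_left 2
  rw [padicValNat_dvd_iff_le (Nat.factorial_ne_zero n)] at h2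
  have hb : Nat.log p n < 2 := by
    apply Nat.log_lt_of_lt_pow (by omega)
    have := hp.two_le
    nlinarith
  rw [padicValNat_factorial hb] at h2
  simp at h2
  have : n / p < 2 := Nat.div_lt_of_lt_mul (by omega)
  omega

set_option maxHeartbeats 800000 in
/-- A chief factor meeting the large primes is nonabelian simple and involves all of them. -/
theorem exists_simple_section (hn : 5 ≤ n)
    (hcard : Nat.card G = Nat.card (alternatingGroup (Fin n)))
    (hspec : Set.range (orderOf : G → ℕ) = Set.range (orderOf : alternatingGroup (Fin n) → ℕ))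
    {p₀ r₀ : ℕ} (hp₀ : p₀.Prime) (hr₀ : r₀.Prime) (hne₀ : p₀ ≠ r₀) (h₁ : n < 2 * p₀) (h₂ : p₀ ≤ n)
    (h₃ : n < 2 * r₀) (h₄ : r₀ ≤ n) :
    ∃ (N H : Subgroup G) (_ : N.Normal), H.Normal ∧ N < H ∧
      IsSimpleGroup (↥H ⧸ N.subgroupOf H) ∧ ¬ IsMulCommutative (↥H ⧸ N.subgroupOf H) ∧
      ∀ p : ℕ, p.Prime → n < 2 * p → p ≤ n → p ∣ Nat.card (↥H ⧸ N.subgroupOf H) := by
  classical
  set P := fun p : ℕ => p.Prime ∧ n < 2 * p ∧ p ≤ n with hP
  have hnd : ∀ p r, P p → P r → p ≠ r → ¬ r ∣ p - 1 := by
    rintro p r ⟨hp, hp1, hp2⟩ ⟨hr, hr1, hr2⟩ hne hd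
    obtain ⟨k, hk⟩ := hd
    have hpodd : p % 2 = 1 := hp.eq_two_or_odd.resolve_left (by omega)
    have hrodd : r % 2 = 1 := hr.eq_two_or_odd.resolve_left (by omega)
    rcases k with _ | _ | k
    · simp at hk; have := hp.two_le; omega
    · simp at hk; omega
    · nlinarith [show p - 1 < n from by omega]
  let S : Set (Subgroup G) := {N | N.Normal ∧ ∀ p, P p → ¬ p ∣ Nat.card N}
  have hS : S.Nonempty := ⟨⊥, inferInstance, fun p hp => by
    rw [Subgroup.card_bot]; exact hp.1.not_dvd_one⟩
  obtain ⟨N, hNS⟩ := (Set.toFinite S).exists_maximal hS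
  obtain ⟨⟨hNn, hNp⟩, hmax⟩ := hNS
  haveI := hNn
  have hNtop : N ≠ ⊤ := fun h => hNp p₀ ⟨hp₀, h₁, h₂⟩ (by
    rw [h, Subgroup.card_top]; exact dvd_card hcard (by omega) hp₀ (by omega) h₂)
  let S' : Set (Subgroup G) := {H | H.Normal ∧ N < H}
  obtain ⟨H, ⟨hHn, hNH⟩, hHmin⟩ := (Set.toFinite S').exists_minimal ⟨⊤, inferInstance, hNtop.lt_top⟩
  haveI := hHn
  obtain ⟨p, hpP, hpH⟩ : ∃ p, P p ∧ p ∣ Nat.card H := by
    by_contra hc
    push Not at hc
    exact hNH.not_ge (hmax ⟨hHn, hc⟩ hNH.le)
  let π := QuotientGroup.mk' N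
  set Hb := H.map π with hHb
  haveI : Hb.Normal := hHn.map π (QuotientGroup.mk'_surjective N)
  let e : (↥H ⧸ N.subgroupOf H) ≃* Hb :=
    (QuotientGroup.quotientMulEquivOfEq (by
      rw [← MonoidHom.comap_ker, QuotientGroup.ker_mk', Subgroup.subgroupOf] :
        N.subgroupOf H = (π.comp H.subtype).ker)).trans
      ((QuotientGroup.quotientKerEquivRange _).trans
        (MulEquiv.subgroupCongr (by rw [MonoidHom.range_comp, Subgroup.range_subtype])))
  have hcardmul : Nat.card H = Nat.card Hb * Nat.card N := by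
    rw [← Nat.card_congr e.toEquiv, Subgroup.card_eq_card_quotient_mul_card_subgroup (N.subgroupOf H),
      Nat.card_congr (Subgroup.subgroupOfEquivOfLe hNH.le).toEquiv]
  have hquot : ∀ q, P q → q ∣ Nat.card (G ⧸ N) := fun q hq =>
    (hq.1.dvd_mul.1 (N.card_eq_card_quotient_mul_card_subgroup ▸
      dvd_card hcard (by omega) hq.1 (by have := hq.2.1; omega) hq.2.2)).resolve_right (hNp q hq)
  have hnoel : ∀ q r, P q → P r → q ≠ r → ¬ ∃ x : G ⧸ N, orderOf x = q * r :=
    fun q r hq hr hne h => not_order_mul hq.1 hr.1 hne (by have := hq.2.1; have := hr.2.1; omega) hspec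
      (exists_lift_order N h)
  have hpHb : p ∣ Nat.card Hb :=
    (hpP.1.dvd_mul.1 (hcardmul ▸ hpH)).resolve_right (hNp p hpP)
  haveI := Fact.mk hpP.1
  have hp2 : ¬ p ^ 2 ∣ Nat.card G := sq_not_dvd hcard (by omega) hpP.1 hpP.2.2 hpP.2.1
  have hHbG : Nat.card Hb ∣ Nat.card G :=
    (Subgroup.card_subgroup_dvd_card Hb).trans (Subgroup.card_quotient_dvd_card N)
  have hmin : ∀ K : Subgroup (G ⧸ N), K.Normal → K ≠ ⊥ → K ≤ Hb → K = Hb := by
    intro K hK hne hle
    have h1 : N ≤ K.comap π := by
      intro x hx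
      show (x : G ⧸ N) ∈ K
      rw [(QuotientGroup.eq_one_iff x).2 hx]; exact one_mem _
    have h3 : K.comap π ≤ H := by
      refine (Subgroup.comap_mono hle).trans ?_
      rw [hHb, Subgroup.comap_map_eq, QuotientGroup.ker_mk', sup_eq_left.2 hNH.le]
    have h2 : N < K.comap π := by
      refine h1.lt_of_ne fun he => hne ?_
      rw [← Subgroup.map_comap_eq_self_of_surjective (QuotientGroup.mk'_surjective N) K]
      show (K.comap π).map π = ⊥
      rw [← he, Subgroup.map_eq_bot_iff, QuotientGroup.ker_mk']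
    have h4 : K.comap π = H := le_antisymm h3 (hHmin ⟨Subgroup.Normal.comap hK π, h2⟩ h3)
    rw [hHb, ← h4, Subgroup.map_comap_eq_self_of_surjective (QuotientGroup.mk'_surjective N)]
  have hHb1 : Hb ≠ ⊥ := fun h => hpP.1.not_dvd_one (by rw [h, Subgroup.card_bot] at hpHb; exact hpHb)
  obtain ⟨Pp⟩ : Nonempty (Sylow p Hb) := inferInstance
  have hPcard : Nat.card Pp = p := by
    rw [Sylow.card_eq_multiplicity]
    have hle : (Nat.card Hb).factorization p < 2 := by
      by_contra hc
      exact hp2 ((pow_dvd_pow p (by omega)).trans ((Nat.ordProj_dvd _ p).trans hHbG))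
    have hge : 1 ≤ (Nat.card Hb).factorization p :=
      (hpP.1.dvd_iff_one_le_factorization Nat.card_pos.ne').1 hpHb
    rw [show (Nat.card Hb).factorization p = 1 by omega, pow_one]
  -- the minimal normal subgroup is not abelian
  have hnc : ¬ IsMulCommutative Hb := by
    intro hcomm
    haveI : (Pp : Subgroup Hb).Normal := ⟨fun a ha g => by
      rw [hcomm.is_comm.comm g a, mul_inv_cancel_right]; exact ha⟩
    haveI := Pp.characteristic_of_normal inferInstance
    haveI : ((Pp : Subgroup Hb).map Hb.subtype).Normal := inferInstance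
    have hc : Nat.card ((Pp : Subgroup Hb).map Hb.subtype) = p :=
      (Subgroup.card_map_of_injective Hb.subtype_injective).trans hPcard
    obtain ⟨r, hrP, hpr⟩ : ∃ r, P r ∧ p ≠ r := by
      rcases eq_or_ne p p₀ with h | h
      · exact ⟨r₀, ⟨hr₀, h₃, h₄⟩, h ▸ hne₀⟩
      · exact ⟨p₀, ⟨hp₀, h₁, h₂⟩, h⟩
    exact hnoel p r hpP hrP hpr (exists_orderOf_mul_of_normal_prime _ hpP.1 hrP.1 hpr hc
      (hnd p r hpP hrP hpr) (hquot r hrP))
  -- all large primes divide it
  have hall : ∀ r, P r → r ∣ Nat.card Hb := by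
    intro r hr
    by_contra hrH
    have hpr : p ≠ r := fun h => hrH (h ▸ hpHb)
    set Q := (Pp : Subgroup Hb).map Hb.subtype with hQ
    have hQc : Nat.card Q = p := (Subgroup.card_map_of_injective Hb.subtype_injective).trans hPcard
    have hfr : Subgroup.normalizer (Q : Set (G ⧸ N)) ⊔ Hb = ⊤ := Sylow.normalizer_sup_eq_top Pp
    set K := Subgroup.normalizer (Q : Set (G ⧸ N)) with hK
    have hKH : (K.subgroupOf (K ⊔ Hb) : Subgroup _) = K.subgroupOf (K ⊔ Hb) := rfl
    have hrK : r ∣ Nat.card K := by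
      have hle : Nat.card (G ⧸ N) ∣ Nat.card K * Nat.card Hb := by
        have hidx : Hb.index = Hb.relIndex K := by
          rw [← Subgroup.relIndex_top_right, ← hfr, Subgroup.relIndex_sup_right]
        rw [← Hb.card_mul_index, hidx, mul_comm]
        exact Nat.mul_dvd_mul_right (Subgroup.index_dvd_card _) _
      exact (hr.1.dvd_mul.1 ((hquot r hr).trans hle)).resolve_right hrH
    haveI : (Q.subgroupOf K).Normal := Subgroup.normal_in_normalizer
    obtain ⟨x, hx⟩ := exists_orderOf_mul_of_normal_prime (Q.subgroupOf K) hpP.1 hr.1 hpr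
      (by rw [Nat.card_congr (Subgroup.subgroupOfEquivOfLe Subgroup.le_normalizer).toEquiv, hQc])
      (hnd p r hpP hr hpr) hrK
    exact hnoel p r hpP hr hpr ⟨(x : G ⧸ N), by rw [Subgroup.orderOf_coe, hx]⟩
  -- it is simple
  haveI : Nontrivial Hb := (Subgroup.nontrivial_iff_ne_bot Hb).2 hHb1
  have hsimple : IsSimpleGroup Hb := by
    -- conjugates of a minimal normal subgroup: those not containing the large prime are absent
    have key : ∀ Y : Subgroup Hb, Y.Normal → Y ≠ ⊥ → p ∣ Nat.card Y := by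
      intro Y hY hYne
      by_contra hpY
      haveI := hY
      -- the subgroup generated by all normal subgroups of order prime to `p`
      let Z : Set (Subgroup Hb) := {Z | Z.Normal ∧ ¬ p ∣ Nat.card Z}
      obtain ⟨Z₁, ⟨hZn, hZp⟩, hZmax⟩ := (Set.toFinite Z).exists_maximal ⟨Y, hY, hpY⟩
      haveI := hZn
      have hle : ∀ W ∈ Z, W ≤ Z₁ := by
        rintro W ⟨hWn, hWp⟩
        haveI := hWn
        refine le_sup_right.trans (hZmax ⟨inferInstance, fun hd => ?_⟩ (le_sup_left (b := W)))
        have : Nat.card (Z₁ ⊔ W : Subgroup Hb) ∣ Nat.card Z₁ * Nat.card W := by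
          rw [← Subgroup.relIndex_bot_left, ← Subgroup.relIndex_mul_relIndex ⊥ Z₁ _ bot_le le_sup_left,
            Subgroup.relIndex_sup_left, Subgroup.relIndex_bot_left]
          exact Nat.mul_dvd_mul_left _ (Subgroup.index_dvd_card _)
        exact (hpP.1.dvd_mul.1 (hd.trans this)).elim hZp hWp
      haveI : Z₁.Characteristic := by
        rw [Subgroup.characteristic_iff_map_le]
        intro φ
        refine hle _ ⟨hZn.map _ φ.surjective, ?_⟩
        rwa [Subgroup.card_map_of_injective φ.injective]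
      have hmapeq := hmin (Z₁.map Hb.subtype) inferInstance (by
          intro h
          rw [Subgroup.map_eq_bot_iff_of_injective _ Hb.subtype_injective] at h
          exact hYne (le_bot_iff.1 (h ▸ hle Y ⟨hY, hpY⟩))) (Subgroup.map_subtype_le Z₁)
      rw [← Subgroup.card_map_of_injective Hb.subtype_injective, hmapeq] at hZp
      exact hZp hpHb
    refine ⟨fun Y hY => ?_⟩
    rcases eq_or_ne Y ⊥ with h | h
    · exact Or.inl h
    right
    haveI := hY
    have hpY := key Y hY h
    let C : Subgroup Hb := Subgroup.closure {x | orderOf x = p}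
    haveI : C.Characteristic := by
      rw [Subgroup.characteristic_iff_map_le]
      intro φ
      rw [MonoidHom.map_closure, Subgroup.closure_le]
      rintro _ ⟨x, hx, rfl⟩
      exact Subgroup.subset_closure ((φ.orderOf_eq x).trans hx)
    have hCY : C ≤ Y := by
      rw [Subgroup.closure_le]
      intro x hx
      show x ∈ Y
      rw [← QuotientGroup.eq_one_iff, ← orderOf_eq_one_iff]
      have h1 : orderOf (x : Hb ⧸ Y) ∣ p := hx ▸ orderOf_map_dvd (QuotientGroup.mk' Y) x
      refine ((Nat.dvd_prime hpP.1).1 h1).resolve_right fun h2 => hp2 ?_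
      have h3 : p ∣ Nat.card (Hb ⧸ Y) := h2 ▸ orderOf_dvd_natCard _
      refine dvd_trans ?_ hHbG
      rw [Y.card_eq_card_quotient_mul_card_subgroup, pow_two]
      exact Nat.mul_dvd_mul h3 hpY
    have hCne : C.map Hb.subtype ≠ ⊥ := by
      intro h'
      rw [Subgroup.map_eq_bot_iff_of_injective _ Hb.subtype_injective] at h'
      obtain ⟨x, hx⟩ := exists_prime_orderOf_dvd_card' p hpHb
      have hxC : x ∈ C := Subgroup.subset_closure hx
      rw [h', Subgroup.mem_bot] at hxC
      rw [hxC, orderOf_one] at hx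
      exact hpP.1.ne_one hx.symm
    have hmapeq := hmin (C.map Hb.subtype) inferInstance hCne (Subgroup.map_subtype_le C)
    refine top_le_iff.1 (le_trans ?_ hCY)
    rw [← Subgroup.map_le_map_iff_of_injective Hb.subtype_injective, hmapeq,
      ← MonoidHom.range_eq_map, Subgroup.range_subtype]
  refine ⟨N, H, hNn, hHn, hNH, ?_, ?_, ?_⟩
  · exact e.isSimpleGroup
  · intro hcomm
    exact hnc ⟨⟨fun a b => e.symm.injective (by
      rw [map_mul, map_mul, hcomm.is_comm.comm])⟩⟩
  · intro q hq h1 h2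
    rw [Nat.card_congr e.toEquiv]
    exact hall q ⟨hq, h1, h2⟩

theorem not_solvable (hn : 5 ≤ n)
    (hcard : Nat.card G = Nat.card (alternatingGroup (Fin n)))
    (hspec : Set.range (orderOf : G → ℕ) = Set.range (orderOf : alternatingGroup (Fin n) → ℕ)) :
    ¬ Group.IsSolvable G := by
  intro hsol
  haveI := hsol
  have main : ∀ p r, p.Prime → r.Prime → p ≠ r → n < 2 * p → p ≤ n → n < 2 * r → r ≤ n → False := by
    intro p r hp hr hne a b c d
    obtain ⟨N, H, hN, -, -, hsim, hnc, -⟩ := exists_simple_section hn hcard hspec hp hr hne a b c d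
    haveI := hsim
    exact hnc ⟨⟨fun x y => IsSimpleGroup.comm_iff_isSolvable.2 inferInstance x y⟩⟩
  -- a Hall subgroup with a normal subgroup of prime order
  have small : ∀ p r k : ℕ, p.Prime → r.Prime → p ≠ r → n < p + r → ¬ r ∣ p - 1 →
      Nat.card G = (p * r ^ 2) * k → (p * r ^ 2).Coprime k →
      (∀ i, i ∣ r ^ 2 → i % p = 1 → i = 1) → False := by
    intro p r k hp hr hne hlt hnd hk hcop hi
    obtain ⟨A, hA⟩ := Cfsg.Agent.H19.hall_exists (G := G) hk hcop
    haveI := Fact.mk hp
    obtain ⟨Pp⟩ : Nonempty (Sylow p A) := inferInstance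
    have hPc : Nat.card Pp = p := by
      rw [Sylow.card_eq_multiplicity, hA,
        Nat.factorization_mul_apply_of_coprime
          (((Nat.coprime_primes hp hr).2 hne).pow_right 2), hp.factorization_self,
        Nat.factorization_pow, Finsupp.smul_apply,
        Nat.factorization_eq_zero_of_not_dvd (fun h => hne ((Nat.prime_dvd_prime_iff_eq hp hr).1 h))]
      simp
    have hidx : (Pp : Subgroup A).index = r ^ 2 := by
      have h := (Pp : Subgroup A).card_mul_index
      rw [hPc, hA] at h
      exact Nat.eq_of_mul_eq_mul_left hp.pos h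
    have hone : Nat.card (Sylow p A) = 1 :=
      hi _ (hidx ▸ Pp.card_dvd_index) (by
        have := card_sylow_modEq_one p A
        rwa [Nat.ModEq, Nat.one_mod_eq_one.2 hp.ne_one] at this)
    haveI : Subsingleton (Sylow p A) := (Nat.card_eq_one_iff_unique.1 hone).1
    haveI : (Pp : Subgroup A).Normal := Pp.normal_of_subsingleton
    obtain ⟨x, hx⟩ := exists_orderOf_mul_of_normal_prime (Pp : Subgroup A) hp hr hne hPc hnd
      (by rw [hA]; exact dvd_mul_of_dvd_right (dvd_pow_self r two_ne_zero) p)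
    exact not_order_mul hp hr hne hlt hspec ⟨x, by rw [Subgroup.orderOf_coe, hx]⟩
  rcases lt_or_ge n 11 with h | h
  · have h2 := alt_card_facts hcard (by omega : 2 ≤ n)
    interval_cases n
    · exact main 3 5 (by norm_num) (by norm_num) (by norm_num) (by norm_num) (by norm_num) (by norm_num) (by norm_num)
    · refine small 5 3 8 (by norm_num) (by norm_num) (by norm_num) (by norm_num) (by norm_num) ?_ (by norm_num) ?_
      · norm_num [Nat.factorial] at h2; omega
      · intro i hi hi'
        have : i ≤ 9 := Nat.le_of_dvd (by norm_num) hi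
        interval_cases i <;> omega
    · exact main 5 7 (by norm_num) (by norm_num) (by norm_num) (by norm_num) (by norm_num) (by norm_num) (by norm_num)
    · exact main 5 7 (by norm_num) (by norm_num) (by norm_num) (by norm_num) (by norm_num) (by norm_num) (by norm_num)
    · exact main 5 7 (by norm_num) (by norm_num) (by norm_num) (by norm_num) (by norm_num) (by norm_num) (by norm_num)
    · refine small 7 5 10368 (by norm_num) (by norm_num) (by norm_num) (by norm_num) (by norm_num) ?_ (by norm_num) ?_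
      · norm_num [Nat.factorial] at h2; omega
      · intro i hi hi'
        have : i ≤ 25 := Nat.le_of_dvd (by norm_num) hi
        interval_cases i <;> omega
  · obtain ⟨p, r, hp, hr, hne, a, b, c, d⟩ := exists_two_large_primes n h
    exact main p r hp hr hne a b c d

end Cfsg.Agent.H79.AltSpec
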