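import Mathlib

/-!
There are at least two primes in the upper half of an interval `[1, n]` for `n ≥ 11`.
-/

set_option autoImplicit false

namespace Cfsg.Agent.H79

open Nat

theorem centralBinom_le_of_one_prime (m : ℕ) (hm : 2 < m)
    (h : ∀ p r : ℕ, p.Prime → r.Prime → m < p → p ≤ 2 * m → m < r → r ≤ 2 * m → p = r) :
    centralBinom m ≤ 2 * m * ((2 * m) ^ sqrt (2 * m) * 4 ^ (2 * m / 3)) := by
  have m_pos : 0 < m := (Nat.zero_le _).trans_lt hm
  have m2_pos : 1 ≤ 2 * m := by omega
  set f := fun x => x ^ m.centralBinom.factorization x with hf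
  let S := {p ∈ Finset.range (2 * m + 1) | Nat.Prime p}
  have hprod : centralBinom m = ∏ x ∈ S, f x := by
    rw [Finset.prod_filter_of_ne (fun p _ hne => ?_)]
    · exact m.prod_pow_factorization_centralBinom.symm
    · by_contra hp
      exact hne (by rw [hf]; simp [factorization_eq_zero_of_not_prime m.centralBinom hp])
  rw [hprod, ← Finset.prod_filter_mul_prod_filter_not S (· ≤ m), mul_comm]
  apply Nat.mul_le_mul
  · set B := {x ∈ S | ¬ x ≤ m}
    have hB : B.card ≤ 1 := Finset.card_le_one.2 fun a ha b hb => by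
      simp only [B, S, Finset.mem_filter, Finset.mem_range] at ha hb
      exact h a b ha.1.2 hb.1.2 (by omega) (by omega) (by omega) (by omega)
    calc ∏ x ∈ B, f x ≤ (2 * m) ^ B.card :=
          Finset.prod_le_pow_card B f (2 * m) fun x _ =>
            pow_factorization_choose_le (by omega)
      _ ≤ (2 * m) ^ 1 := pow_right_mono₀ m2_pos hB
      _ = 2 * m := pow_one _
  · rw [← Finset.prod_filter_mul_prod_filter_not {x ∈ S | x ≤ m} (· ≤ sqrt (2 * m))]
    apply Nat.mul_le_mul
    · refine (Finset.prod_le_prod' fun p _ => (?_ : f p ≤ 2 * m)).trans ?_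
      · exact pow_factorization_choose_le (mul_pos two_pos m_pos)
      have hc : (Finset.Icc 1 (sqrt (2 * m))).card = sqrt (2 * m) := by
        rw [card_Icc, Nat.add_sub_cancel]
      rw [Finset.prod_const]
      refine pow_right_mono₀ m2_pos ((Finset.card_le_card fun x hx => ?_).trans hc.le)
      simp only [S, Finset.mem_filter, Finset.mem_range] at hx
      exact Finset.mem_Icc.mpr ⟨hx.1.1.2.one_lt.le, hx.2⟩
    · refine le_trans ?_ (primorial_le_four_pow (2 * m / 3))
      set T := {x ∈ {x ∈ S | x ≤ m} | ¬ x ≤ sqrt (2 * m)}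
      have e : ∏ x ∈ T, f x = ∏ x ∈ T.filter (· ≤ 2 * m / 3), f x := by
        refine (Finset.prod_filter_of_ne fun x hx hne => ?_).symm
        by_contra hgt
        simp only [T, S, Finset.mem_filter, Finset.mem_range] at hx
        apply hne
        rw [hf]
        simp only
        rw [factorization_centralBinom_of_two_mul_self_lt_three_mul hm hx.1.2 (by omega),
          _root_.pow_zero]
      rw [e]
      refine (Finset.prod_le_prod' fun p hp => (?_ : f p ≤ p)).trans ?_
      · simp only [T, S, Finset.mem_filter, Finset.mem_range] at hp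
        refine (pow_right_mono₀ hp.1.1.1.2.one_lt.le ?_).trans (pow_one p).le
        exact Nat.factorization_choose_le_one (sqrt_lt'.mp <| not_le.1 hp.1.2)
      · rw [primorial]
        refine Finset.prod_le_prod_of_subset_of_one_le' ?_ ?_
        · intro x hx
          simp only [T, S, Finset.mem_filter, Finset.mem_range] at hx ⊢
          exact ⟨by omega, hx.1.1.1.2⟩
        · intro p hp _
          exact (Finset.mem_filter.1 hp).2.one_lt.le

theorem two_primes_eventually (m : ℕ) (hm : 2048 ≤ m) :
    ∃ p r : ℕ, p.Prime ∧ r.Prime ∧ p ≠ r ∧ m < p ∧ p ≤ 2 * m ∧ m < r ∧ r ≤ 2 * m := by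
  by_contra hc
  push Not at hc
  have hle := centralBinom_le_of_one_prime m (by omega) fun p r hp hr h1 h2 h3 h4 => by
    by_contra hne
    exact absurd h4 (by have := hc p r hp hr hne h1 h2 h3; omega)
  have hlt := Nat.four_pow_lt_mul_centralBinom m (by omega)
  set L := Nat.log 2 m with hL
  set s := sqrt (2 * m) with hs
  have h1 : 2 * m < 2 ^ (L + 2) := by
    have := Nat.lt_pow_succ_log_self (b := 2) one_lt_two m
    rw [← hL] at this
    rw [pow_succ, mul_comm]; exact (Nat.mul_lt_mul_right two_pos).2 this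
  have h2 : 2 ^ (L + 1) ≤ 2 * m := by
    have := Nat.pow_log_le_self 2 (show m ≠ 0 by omega)
    rw [← hL] at this
    rw [pow_succ]; omega
  have hs1 : s * s ≤ 2 * m := Nat.sqrt_le _
  have hs2 : 2 * m < (s + 1) * (s + 1) := Nat.lt_succ_sqrt _
  have hs64 : 64 ≤ s := by rw [hs, Nat.le_sqrt]; omega
  have hLs : 3 * (L + 2) + 2 ≤ s := by
    by_contra hh
    have key : ∀ k, 18 ≤ k → (3 * k + 8) * (3 * k + 8) ≤ 2 ^ (k + 1) := by
      intro k hk
      induction k, hk using Nat.le_induction with
      | base => norm_num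
      | succ k hk ih => rw [pow_succ 2 (k + 1)]; nlinarith
    have := key L (by omega)
    have : (s + 1) * (s + 1) ≤ (3 * L + 8) * (3 * L + 8) := Nat.mul_le_mul (by omega) (by omega)
    omega
  have hpow : m * (2 * m * ((2 * m) ^ s * 4 ^ (2 * m / 3))) ≤ 4 ^ m := by
    calc m * (2 * m * ((2 * m) ^ s * 4 ^ (2 * m / 3)))
        ≤ 2 ^ (L + 2) * (2 ^ (L + 2) * ((2 ^ (L + 2)) ^ s * 4 ^ (2 * m / 3))) :=
          Nat.mul_le_mul (by omega) (Nat.mul_le_mul h1.le
            (Nat.mul_le_mul_right _ (Nat.pow_le_pow_left h1.le _)))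
      _ = 2 ^ ((L + 2) * (s + 2) + 2 * (2 * m / 3)) := by
          rw [show (4 : ℕ) = 2 ^ 2 from rfl, ← pow_mul, ← pow_mul, ← pow_add, ← pow_add, ← pow_add]
          ring_nf
      _ ≤ 2 ^ (2 * m) := by
          apply Nat.pow_le_pow_right two_pos
          have hA : 3 * ((L + 2) * (s + 2)) + 2 * (s + 2) ≤ s * (s + 2) :=
            le_of_eq_of_le (by ring) (Nat.mul_le_mul_right (s + 2) hLs)
          have hB : s * (s + 2) = s * s + 2 * s := by ring
          omega
      _ = 4 ^ m := by rw [show (4 : ℕ) = 2 ^ 2 from rfl, ← pow_mul]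
  exact absurd (hlt.trans_le ((Nat.mul_le_mul_left m hle).trans hpow)) (lt_irrefl _)

/-- Two different primes in the upper half of `[1, n]`. -/
theorem exists_two_large_primes (n : ℕ) (hn : 11 ≤ n) :
    ∃ p r : ℕ, p.Prime ∧ r.Prime ∧ p ≠ r ∧ n < 2 * p ∧ p ≤ n ∧ n < 2 * r ∧ r ≤ n := by
  by_cases h : 4096 ≤ n
  · obtain ⟨p, r, hp, hr, hne, h1, h2, h3, h4⟩ := two_primes_eventually (n / 2) (by omega)
    exact ⟨p, r, hp, hr, hne, by omega, by omega, by omega, by omega⟩
  · have step : ∀ a b c : ℕ, a.Prime → b.Prime → a < b → c ≤ 2 * a → n < c → b ≤ n →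
        ∃ p r : ℕ, p.Prime ∧ r.Prime ∧ p ≠ r ∧ n < 2 * p ∧ p ≤ n ∧ n < 2 * r ∧ r ≤ n :=
      fun a b c ha hb hab hc hn1 hn2 =>
        ⟨a, b, ha, hb, hab.ne, by omega, by omega, by omega, by omega⟩
    rcases lt_or_ge n 13 with h13 | h13
    · exact step 7 11 13 (by norm_num) (by norm_num) (by norm_num) (by norm_num) h13 hn
    rcases lt_or_ge n 19 with h19 | h19
    · exact step 11 13 19 (by norm_num) (by norm_num) (by norm_num) (by norm_num) h19 h13
    rcases lt_or_ge n 23 with h23 | h23
    · exact step 13 19 23 (by norm_num) (by norm_num) (by norm_num) (by norm_num) h23 h19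
    rcases lt_or_ge n 37 with h37 | h37
    · exact step 19 23 37 (by norm_num) (by norm_num) (by norm_num) (by norm_num) h37 h23
    rcases lt_or_ge n 43 with h43 | h43
    · exact step 23 37 43 (by norm_num) (by norm_num) (by norm_num) (by norm_num) h43 h37
    rcases lt_or_ge n 73 with h73 | h73
    · exact step 37 43 73 (by norm_num) (by norm_num) (by norm_num) (by norm_num) h73 h43
    rcases lt_or_ge n 83 with h83 | h83
    · exact step 43 73 83 (by norm_num) (by norm_num) (by norm_num) (by norm_num) h83 h73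
    rcases lt_or_ge n 139 with h139 | h139
    · exact step 73 83 139 (by norm_num) (by norm_num) (by norm_num) (by norm_num) h139 h83
    rcases lt_or_ge n 163 with h163 | h163
    · exact step 83 139 163 (by norm_num) (by norm_num) (by norm_num) (by norm_num) h163 h139
    rcases lt_or_ge n 277 with h277 | h277
    · exact step 139 163 277 (by norm_num) (by norm_num) (by norm_num) (by norm_num) h277 h163
    rcases lt_or_ge n 317 with h317 | h317
    · exact step 163 277 317 (by norm_num) (by norm_num) (by norm_num) (by norm_num) h317 h277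
    rcases lt_or_ge n 547 with h547 | h547
    · exact step 277 317 547 (by norm_num) (by norm_num) (by norm_num) (by norm_num) h547 h317
    rcases lt_or_ge n 631 with h631 | h631
    · exact step 317 547 631 (by norm_num) (by norm_num) (by norm_num) (by norm_num) h631 h547
    rcases lt_or_ge n 1093 with h1093 | h1093
    · exact step 547 631 1093 (by norm_num) (by norm_num) (by norm_num) (by norm_num) h1093 h631
    rcases lt_or_ge n 1259 with h1259 | h1259
    · exact step 631 1093 1259 (by norm_num) (by norm_num) (by norm_num) (by norm_num) h1259 h1093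
    rcases lt_or_ge n 2179 with h2179 | h2179
    · exact step 1093 1259 2179 (by norm_num) (by norm_num) (by norm_num) (by norm_num) h2179 h1259
    rcases lt_or_ge n 2503 with h2503 | h2503
    · exact step 1259 2179 2503 (by norm_num) (by norm_num) (by norm_num) (by norm_num) h2503 h2179
    exact step 2179 2503 4357 (by norm_num) (by norm_num) (by norm_num) (by norm_num) (by omega)
      h2503

end Cfsg.Agent.H79
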